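import Mathlib
import Cfsg.Agent.Lib.Helper55.OOG.Defs

/-!
# Project OOG (S2413): packages [RED1], [RED2] (with the strong form), [RED] — row reduction

A subgroup `K` containing the short and the long root elements moves every non-zero singular
vector into the line `⟨e_{i₀}⟩`.  All three packages only need `PkgExist`.
-/

set_option autoImplicit false
open scoped Matrix

namespace Cfsg.Agent.Lib.Helper15.OOG

open Cfsg.Agent.Lib.Helper55.OOG

universe u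

/-- Killing one coordinate `k ∉ {x_{i₀}, y_{i₀}}` of a vector with `x_{i₀} ≠ 0`, by the root
element `ρ_{f_{i₀}, c • (basis vector k)}`; only the coordinates `k` and `y_{i₀}` change. -/
theorem kill_coord {m : ℕ} {F : Type u} [Field F] (hE : PkgExist.{u}) (K : Subgroup ↥(Iso m F))
    (hS : HasS K) (hL : HasLong K) (i₀ : Fin m) (k : Unit ⊕ (Fin m ⊕ Fin m))
    (hk1 : k ≠ Sum.inr (Sum.inl i₀)) (hk2 : k ≠ Sum.inr (Sum.inr i₀)) (p : Vec m F)
    (hX : p (Sum.inr (Sum.inl i₀)) ≠ 0) :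
    ∃ g ∈ K, (mat g *ᵥ p) k = 0 ∧
      ∀ k', k' ≠ k → k' ≠ Sum.inr (Sum.inr i₀) → (mat g *ᵥ p) k' = p k' := by
  classical
  obtain ⟨c, hcX⟩ : ∃ c : F, p (Sum.inr (Sum.inl i₀)) * c = -p k :=
    ⟨-(p k) / p (Sum.inr (Sum.inl i₀)), by field_simp⟩
  have key : ∃ σ : ↥(Iso m F), σ ∈ K ∧
      IsSieg (Fv i₀) (c • (Pi.single k 1 : Vec m F)) σ := by
    rcases k with ⟨⟩ | a | a
    · obtain ⟨σ, hσ⟩ := hE m F (Fv i₀) (c • T0) (Q_Fv i₀)
        (by rw [B_smul_right, B_Fv_T0, mul_zero])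
      exact ⟨σ, (hS i₀ c σ).2 hσ, hσ⟩
    · have ha : a ≠ i₀ := fun h => hk1 (by rw [h])
      obtain ⟨σ, hσ⟩ := hE m F (Fv i₀) (c • E a) (Q_Fv i₀)
        (by rw [B_smul_right, B_Fv_E, if_neg (Ne.symm ha), mul_zero])
      exact ⟨σ, (hL a i₀ ha c σ).2.2.1 hσ, hσ⟩
    · have ha : a ≠ i₀ := fun h => hk2 (by rw [h])
      obtain ⟨σ, hσ⟩ := hE m F (Fv i₀) (c • Fv a) (Q_Fv i₀)
        (by rw [B_smul_right, B_Fv_Fv, mul_zero])
      exact ⟨σ, (hL a i₀ ha c σ).2.2.2 hσ, hσ⟩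
  obtain ⟨σ, hσK, hσ⟩ := key
  refine ⟨σ, hσK, ?_, ?_⟩
  · rw [hσ p, B_Fv]
    simp only [Pi.add_apply, Pi.sub_apply, Pi.smul_apply, smul_eq_mul, Pi.single_apply,
      if_neg hk2, if_true, mul_zero, sub_zero, mul_one]
    linear_combination hcX
  · intro k' hk' hk'2
    rw [hσ p, B_Fv]
    simp only [Pi.add_apply, Pi.sub_apply, Pi.smul_apply, smul_eq_mul, Pi.single_apply,
      if_neg hk'2, if_neg hk', mul_zero, sub_zero, add_zero]

theorem red2_aux {m : ℕ} {F : Type u} [Field F] (hE : PkgExist.{u}) (K : Subgroup ↥(Iso m F))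
    (hS : HasS K) (hL : HasLong K) (i₀ : Fin m) (s : Finset (Unit ⊕ (Fin m ⊕ Fin m))) :
    ∀ p : Vec m F, p (Sum.inr (Sum.inl i₀)) ≠ 0 →
      (∀ k, k ∉ s → k ≠ Sum.inr (Sum.inl i₀) → k ≠ Sum.inr (Sum.inr i₀) → p k = 0) →
      ∃ g ∈ K, (mat g *ᵥ p) (Sum.inr (Sum.inl i₀)) = p (Sum.inr (Sum.inl i₀)) ∧
        ∀ k, k ≠ Sum.inr (Sum.inl i₀) → k ≠ Sum.inr (Sum.inr i₀) → (mat g *ᵥ p) k = 0 := by
  classical
  induction s using Finset.induction_on with
  | empty =>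
    intro p _ h0
    refine ⟨1, K.one_mem, by rw [one_act], ?_⟩
    intro k hk1 hk2
    rw [one_act]
    exact h0 k (Finset.notMem_empty k) hk1 hk2
  | insert a s ha ih =>
    intro p hX h0
    by_cases ha1 : a = Sum.inr (Sum.inl i₀)
    · apply ih p hX
      intro k hk hk1 hk2
      refine h0 k ?_ hk1 hk2
      rw [Finset.mem_insert]
      rintro (h | h)
      · exact hk1 (h.trans ha1)
      · exact hk h
    by_cases ha2 : a = Sum.inr (Sum.inr i₀)
    · apply ih p hX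
      intro k hk hk1 hk2
      refine h0 k ?_ hk1 hk2
      rw [Finset.mem_insert]
      rintro (h | h)
      · exact hk2 (h.trans ha2)
      · exact hk h
    obtain ⟨σ, hσK, hσa, hσo⟩ := kill_coord hE K hS hL i₀ a ha1 ha2 p hX
    have hX' : (mat σ *ᵥ p) (Sum.inr (Sum.inl i₀)) = p (Sum.inr (Sum.inl i₀)) :=
      hσo _ (Ne.symm ha1) (by simp)
    obtain ⟨g, hgK, hgX, hg0⟩ := ih (mat σ *ᵥ p) (by rw [hX']; exact hX) (by
      intro k hk hk1 hk2
      by_cases hka : k = a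
      · rw [hka]; exact hσa
      · rw [hσo k hka hk2]
        refine h0 k ?_ hk1 hk2
        rw [Finset.mem_insert]
        rintro (h | h)
        · exact hka h
        · exact hk h)
    refine ⟨g * σ, K.mul_mem hgK hσK, ?_, ?_⟩
    · rw [mul_act, hgX, hX']
    · intro k hk1 hk2
      rw [mul_act]
      exact hg0 k hk1 hk2

/-- The strong form of [RED2]: the reduction keeps the coordinate `x_{i₀}`. -/
theorem red2_strong (hE : PkgExist.{u}) (m : ℕ) (F : Type u) [Field F]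
    (K : Subgroup ↥(Iso m F)) (hS : HasS K) (hL : HasLong K) (i₀ : Fin m) (p : Vec m F)
    (hX : p (Sum.inr (Sum.inl i₀)) ≠ 0) :
    ∃ g ∈ K, (mat g *ᵥ p) (Sum.inr (Sum.inl i₀)) = p (Sum.inr (Sum.inl i₀)) ∧
      (mat g *ᵥ p) (Sum.inl ()) = 0 ∧
      ∀ j : Fin m, j ≠ i₀ →
        (mat g *ᵥ p) (Sum.inr (Sum.inl j)) = 0 ∧ (mat g *ᵥ p) (Sum.inr (Sum.inr j)) = 0 := by
  classical
  obtain ⟨g, hgK, hgX, hg0⟩ := red2_aux hE K hS hL i₀ Finset.univ p hX
    (fun k hk => absurd (Finset.mem_univ k) hk)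
  refine ⟨g, hgK, hgX, hg0 _ (by simp) (by simp), ?_⟩
  intro j hj
  exact ⟨hg0 _ (by simpa using hj) (by simp), hg0 _ (by simp) (by simpa using hj)⟩

/-- [RED2] -/
theorem pkgRed2_of (hE : PkgExist.{u}) : PkgRed2.{u} := by
  intro m F _ K hS hL i₀ p hX
  obtain ⟨g, hgK, _, hτ, hj⟩ := red2_strong hE m F K hS hL i₀ p hX
  exact ⟨g, hgK, hτ, hj⟩

/-- [RED1] -/
theorem pkgRed1_of (hE : PkgExist.{u}) : PkgRed1.{u} := by
  intro m F _ h2 K hS hL i₀ p hp hQ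
  classical
  by_cases hx : p (Sum.inr (Sum.inl i₀)) ≠ 0
  · exact ⟨1, K.one_mem, by rw [one_act]; exact hx⟩
  push Not at hx
  by_cases hy : p (Sum.inr (Sum.inr i₀)) ≠ 0
  · -- `ρ_{e_{i₀}, c • t}` with `c = 1` or `c = -1`
    have hex : ∀ c : F, ∃ σ ∈ K, (mat σ *ᵥ p) (Sum.inr (Sum.inl i₀)) =
        -(2 * c * p (Sum.inl ()) + c * c * p (Sum.inr (Sum.inr i₀))) := by
      intro c
      obtain ⟨σ, hσ⟩ := hE m F (E i₀) (c • T0) (Q_E i₀)
        (by rw [B_smul_right, B_E_T0, mul_zero])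
      refine ⟨σ, (hS i₀ c σ).1 hσ, ?_⟩
      rw [hσ p, B_E, B_smul_right, B_T0, Q_smul, Q_T0]
      simp only [Pi.add_apply, Pi.sub_apply, Pi.smul_apply, smul_eq_mul, Pi.single_apply,
        if_true, reduceCtorEq, if_false, mul_zero, add_zero, mul_one, hx]
      ring
    by_contra hcon
    push Not at hcon
    obtain ⟨σ1, hσ1K, h1⟩ := hex 1
    obtain ⟨σ2, hσ2K, h2'⟩ := hex (-1)
    have e1 := hcon σ1 hσ1K
    have e2 := hcon σ2 hσ2K
    rw [h1] at e1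
    rw [h2'] at e2
    apply hy
    have h4 : (2 : F) * p (Sum.inr (Sum.inr i₀)) = 0 := by linear_combination -e1 - e2
    rcases mul_eq_zero.mp h4 with h | h
    · exact absurd h h2
    · exact h
  push Not at hy
  -- some `a ≠ i₀` has `x_a ≠ 0` or `y_a ≠ 0`
  have hex : ∃ a : Fin m, a ≠ i₀ ∧
      (p (Sum.inr (Sum.inl a)) ≠ 0 ∨ p (Sum.inr (Sum.inr a)) ≠ 0) := by
    by_contra hcon
    push Not at hcon
    have hall : ∀ a : Fin m, p (Sum.inr (Sum.inl a)) * p (Sum.inr (Sum.inr a)) = 0 := by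
      intro a
      by_cases ha : a = i₀
      · rw [ha, hx, zero_mul]
      · rw [(hcon a ha).1, zero_mul]
    have hτ : p (Sum.inl ()) = 0 := by
      have h3 : QF m F p = p (Sum.inl ()) ^ 2 := by
        unfold QF Cfsg.quadFormOdd
        rw [Finset.sum_eq_zero (fun a _ => hall a), add_zero]
      rw [h3] at hQ
      exact pow_eq_zero_iff (by norm_num) |>.mp hQ
    apply hp
    funext k
    rcases k with ⟨⟩ | a | a
    · exact hτ
    · by_cases ha : a = i₀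
      · rw [ha]; exact hx
      · exact (hcon a ha).1
    · by_cases ha : a = i₀
      · rw [ha]; exact hy
      · exact (hcon a ha).2
  obtain ⟨a, ha, hxa | hya⟩ := hex
  · -- `ρ_{f_a, e_{i₀}}`
    obtain ⟨σ, hσ⟩ := hE m F (Fv a) ((1 : F) • E i₀) (Q_Fv a)
      (by rw [B_smul_right, B_Fv_E, if_neg ha, mul_zero])
    refine ⟨σ, (hL i₀ a (Ne.symm ha) 1 σ).2.2.1 hσ, ?_⟩
    rw [hσ p, B_Fv]
    have hne : (Sum.inr (Sum.inl i₀) : Unit ⊕ (Fin m ⊕ Fin m)) ≠ Sum.inr (Sum.inr a) := by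
      intro h
      exact absurd (Sum.inr.inj h) (by simp)
    simp only [Pi.add_apply, Pi.sub_apply, Pi.smul_apply, smul_eq_mul, Pi.single_apply,
      if_true, if_neg hne, mul_zero, sub_zero, mul_one, hx, zero_add]
    exact hxa
  · -- `ρ_{e_a, e_{i₀}}`
    obtain ⟨σ, hσ⟩ := hE m F (E a) ((1 : F) • E i₀) (Q_E a)
      (by rw [B_smul_right, B_E_E, mul_zero])
    refine ⟨σ, (hL i₀ a (Ne.symm ha) 1 σ).1 hσ, ?_⟩
    rw [hσ p, B_E]
    have hne : (Sum.inr (Sum.inl i₀) : Unit ⊕ (Fin m ⊕ Fin m)) ≠ Sum.inr (Sum.inl a) := by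
      intro h
      exact ha (Sum.inl.inj (Sum.inr.inj h)).symm
    simp only [Pi.add_apply, Pi.sub_apply, Pi.smul_apply, smul_eq_mul, Pi.single_apply,
      if_true, if_neg hne, mul_zero, sub_zero, mul_one, hx, zero_add]
    exact hya

/-- [RED] (only `PkgExist` is needed: [RED1] and the strong form of [RED2] are proved above). -/
theorem pkgRed_of (hE : PkgExist.{u}) : PkgRed.{u} := by
  intro m F _ h2 K hS hL i₀ p hp hQ
  classical
  obtain ⟨g₁, hg₁, hx1⟩ := pkgRed1_of hE m F h2 K hS hL i₀ p hp hQ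
  obtain ⟨g₂, hg₂, hX, hτ, hj⟩ := red2_strong hE m F K hS hL i₀ (mat g₁ *ᵥ p) hx1
  refine ⟨g₂ * g₁, K.mul_mem hg₂ hg₁, (mat g₁ *ᵥ p) (Sum.inr (Sum.inl i₀)), ?_⟩
  rw [mul_act]
  have hQ'' : QF m F (mat g₂ *ᵥ (mat g₁ *ᵥ p)) = 0 := by rw [Q_act, Q_act]; exact hQ
  have hy : (mat g₂ *ᵥ (mat g₁ *ᵥ p)) (Sum.inr (Sum.inr i₀)) = 0 := by
    have h3 : QF m F (mat g₂ *ᵥ (mat g₁ *ᵥ p)) =
        (mat g₂ *ᵥ (mat g₁ *ᵥ p)) (Sum.inr (Sum.inl i₀)) *
          (mat g₂ *ᵥ (mat g₁ *ᵥ p)) (Sum.inr (Sum.inr i₀)) := by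
      unfold QF Cfsg.quadFormOdd
      rw [hτ, Finset.sum_eq_single i₀]
      · ring
      · intro b _ hb
        rw [(hj b hb).1, zero_mul]
      · intro h
        exact absurd (Finset.mem_univ _) h
    rw [h3, hX] at hQ''
    rcases mul_eq_zero.mp hQ'' with h | h
    · exact absurd h hx1
    · exact h
  funext k
  rcases k with ⟨⟩ | a | a
  · rw [hτ]
    simp
  · by_cases ha : a = i₀
    · rw [ha, hX]
      simp
    · rw [(hj a ha).1]
      simp [ha]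
  · by_cases ha : a = i₀
    · rw [ha, hy]
      simp
    · rw [(hj a ha).2]
      simp

end Cfsg.Agent.Lib.Helper15.OOG
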